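import Mathlib
import Cfsg.Agent.Lib.Helper94.OMG.Defs
import Cfsg.Agent.Lib.Helper14.Forms

/-!
# Project OMG (S2415), package [COMMM]

An isometry fixing `e_i, f_i` for all `i` but the last index commutes with the Levi image of a
matrix whose last row and column are standard.
-/

set_option autoImplicit false
open scoped Matrix MatrixGroups

namespace Cfsg.Agent.Lib.Helper76.OMG

open Cfsg.Agent.Lib.Helper31.Siegel Cfsg.Agent.Lib.Helper32.OPG Cfsg.Agent.Lib.Helper64.OParM
open Cfsg.Agent.Lib.Helper94.OMG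

universe u

section

variable {k : ℕ} {F : Type u} [Field F] {a b : F}

theorem Lm_inl_inl (g : Matrix.SpecialLinearGroup (Fin k) F) (x : MI k → F) (i : Fin k) :
    (matM (Lm k F a b g) *ᵥ x) (Sum.inl (Sum.inl i)) =
      ∑ j, (g : Matrix (Fin k) (Fin k) F) i j * x (Sum.inl (Sum.inl j)) := by
  rw [Lm_apply, matM_Em, mat_L, Matrix.fromBlocks_mulVec]
  simp [Matrix.mulVec, dotProduct]

theorem Lm_inl_inr (g : Matrix.SpecialLinearGroup (Fin k) F) (x : MI k → F) (i : Fin k) :
    (matM (Lm k F a b g) *ᵥ x) (Sum.inl (Sum.inr i)) =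
      ∑ j, (g : Matrix (Fin k) (Fin k) F)⁻¹ j i * x (Sum.inl (Sum.inr j)) := by
  rw [Lm_apply, matM_Em, mat_L, Matrix.fromBlocks_mulVec]
  simp [Matrix.mulVec, dotProduct]

theorem Lm_inr (g : Matrix.SpecialLinearGroup (Fin k) F) (x : MI k → F) (t : Fin 2) :
    (matM (Lm k F a b g) *ᵥ x) (Sum.inr t) = x (Sum.inr t) := by
  rw [Lm_apply, matM_Em]
  rfl

theorem inv_row_std (g : Matrix (Fin k) (Fin k) F) (hdet : IsUnit g.det) (i : Fin k)
    (hrow : ∀ j, g i j = (1 : Matrix (Fin k) (Fin k) F) i j) :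
    ∀ j, g⁻¹ i j = (1 : Matrix (Fin k) (Fin k) F) i j := by
  intro j
  have hinv : g * g⁻¹ = 1 := Matrix.mul_nonsing_inv g hdet
  have h1 := congrFun (congrFun hinv i) j
  rw [Matrix.mul_apply] at h1
  rw [← h1, Finset.sum_eq_single i]
  · rw [hrow i, Matrix.one_apply_eq, one_mul]
  · intro j' _ hj'
    rw [hrow j', Matrix.one_apply_ne (Ne.symm hj'), zero_mul]
  · intro hi
    exact absurd (Finset.mem_univ i) hi

theorem inv_col_std (g : Matrix (Fin k) (Fin k) F) (hdet : IsUnit g.det) (i : Fin k)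
    (hcol : ∀ j, g j i = (1 : Matrix (Fin k) (Fin k) F) j i) :
    ∀ j, g⁻¹ j i = (1 : Matrix (Fin k) (Fin k) F) j i := by
  intro j
  have hinv : g⁻¹ * g = 1 := Matrix.nonsing_inv_mul g hdet
  have h1 := congrFun (congrFun hinv j) i
  rw [Matrix.mul_apply] at h1
  rw [← h1, Finset.sum_eq_single i]
  · rw [hcol i, Matrix.one_apply_eq, mul_one]
  · intro j' _ hj'
    rw [hcol j', Matrix.one_apply_ne hj', mul_zero]
  · intro hi
    exact absurd (Finset.mem_univ i) hi

/-- `h` lies in `⟨e_i, f_i : i + 1 < k⟩`. -/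
def IsH (h : MI k → F) : Prop :=
  (∀ i : Fin k, ¬ (i.val + 1 < k) → h (Sum.inl (Sum.inl i)) = 0 ∧ h (Sum.inl (Sum.inr i)) = 0) ∧
  ∀ t : Fin 2, h (Sum.inr t) = 0

theorem exists_decomp (x : MI k → F) : ∃ h w : MI k → F, x = h + w ∧ IsH h ∧ IsW w := by
  classical
  let h : MI k → F := Sum.elim
    (Sum.elim (fun i => if i.val + 1 < k then x (Sum.inl (Sum.inl i)) else 0)
      (fun i => if i.val + 1 < k then x (Sum.inl (Sum.inr i)) else 0)) (fun _ => 0)
  refine ⟨h, x - h, (add_sub_cancel h x).symm, ⟨?_, ?_⟩, ?_⟩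
  · intro i hi
    simp [h, hi]
  · intro t
    simp [h]
  · intro i hi
    simp [h, hi]

theorem one_sum_left (i : Fin k) (f : Fin k → F) :
    ∑ j, (1 : Matrix (Fin k) (Fin k) F) i j * f j = f i := by
  simp [Matrix.one_apply]

theorem one_sum_right (i : Fin k) (f : Fin k → F) :
    ∑ j, (1 : Matrix (Fin k) (Fin k) F) j i * f j = f i := by
  simp [Matrix.one_apply]

theorem Lm_fix_W (g : Matrix.SpecialLinearGroup (Fin k) F)
    (hg : ∀ l : Fin k, l.val + 1 = k →
      (∀ j, (g : Matrix (Fin k) (Fin k) F) l j = (1 : Matrix (Fin k) (Fin k) F) l j) ∧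
      (∀ j, (g : Matrix (Fin k) (Fin k) F) j l = (1 : Matrix (Fin k) (Fin k) F) j l))
    (w : MI k → F) (hw : IsW w) : matM (Lm k F a b g) *ᵥ w = w := by
  have hdet : IsUnit (g : Matrix (Fin k) (Fin k) F).det := by
    rw [g.2]
    exact isUnit_one
  funext c
  rcases c with (i | i) | t
  · rw [Lm_inl_inl]
    have h1 : ∀ j, (g : Matrix (Fin k) (Fin k) F) i j * w (Sum.inl (Sum.inl j)) =
        (1 : Matrix (Fin k) (Fin k) F) i j * w (Sum.inl (Sum.inl j)) := by
      intro j
      by_cases hj : j.val + 1 < k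
      · rw [(hw j hj).1, mul_zero, mul_zero]
      · have hj' : j.val + 1 = k := by
          have := j.2
          omega
        rw [(hg j hj').2 i]
    rw [Finset.sum_congr rfl (fun j _ => h1 j), one_sum_left]
  · rw [Lm_inl_inr]
    have h1 : ∀ j, (g : Matrix (Fin k) (Fin k) F)⁻¹ j i * w (Sum.inl (Sum.inr j)) =
        (1 : Matrix (Fin k) (Fin k) F) j i * w (Sum.inl (Sum.inr j)) := by
      intro j
      by_cases hj : j.val + 1 < k
      · rw [(hw j hj).2, mul_zero, mul_zero]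
      · have hj' : j.val + 1 = k := by
          have := j.2
          omega
        rw [inv_row_std _ hdet j (hg j hj').1 i]
    rw [Finset.sum_congr rfl (fun j _ => h1 j), one_sum_right]
  · exact Lm_inr g w t

theorem isH_Lm (g : Matrix.SpecialLinearGroup (Fin k) F)
    (hg : ∀ l : Fin k, l.val + 1 = k →
      (∀ j, (g : Matrix (Fin k) (Fin k) F) l j = (1 : Matrix (Fin k) (Fin k) F) l j) ∧
      (∀ j, (g : Matrix (Fin k) (Fin k) F) j l = (1 : Matrix (Fin k) (Fin k) F) j l))
    (h : MI k → F) (hh : IsH h) : IsH (matM (Lm k F a b g) *ᵥ h) := by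
  have hdet : IsUnit (g : Matrix (Fin k) (Fin k) F).det := by
    rw [g.2]
    exact isUnit_one
  refine ⟨?_, ?_⟩
  · intro i hi
    have hi' : i.val + 1 = k := by
      have := i.2
      omega
    constructor
    · rw [Lm_inl_inl]
      rw [Finset.sum_congr rfl (fun j _ => by rw [(hg i hi').1 j]), one_sum_left]
      exact (hh.1 i hi).1
    · rw [Lm_inl_inr]
      rw [Finset.sum_congr rfl (fun j _ => by rw [inv_col_std _ hdet i (hg i hi').2 j]),
        one_sum_right]
      exact (hh.1 i hi).2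
  · intro t
    rw [Lm_inr]
    exact hh.2 t

theorem fix_H (σ : ↥(GM k F a b))
    (hσ : ∀ i : Fin k, i.val + 1 < k →
      matM σ *ᵥ (eM i : MI k → F) = eM i ∧ matM σ *ᵥ (fM i : MI k → F) = fM i)
    (h : MI k → F) (hh : IsH h) : matM σ *ᵥ h = h := by
  have key : matM σ *ᵥ h = (1 : Matrix (MI k) (MI k) F) *ᵥ h := by
    funext c
    simp only [Matrix.mulVec, dotProduct]
    apply Finset.sum_congr rfl
    intro d _
    rcases d with (i | i) | t
    · by_cases hi : i.val + 1 < k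
      · have h1 := congrFun (hσ i hi).1 c
        rw [Matrix.mulVec_single_one] at h1
        have h2 : matM σ c (Sum.inl (Sum.inl i)) =
            (Pi.single (Sum.inl (Sum.inl i)) 1 : MI k → F) c := h1
        rw [Matrix.one_apply, ← Pi.single_apply, h2]
      · rw [(hh.1 i hi).1, mul_zero, mul_zero]
    · by_cases hi : i.val + 1 < k
      · have h1 := congrFun (hσ i hi).2 c
        rw [Matrix.mulVec_single_one] at h1
        have h2 : matM σ c (Sum.inl (Sum.inr i)) =
            (Pi.single (Sum.inl (Sum.inr i)) 1 : MI k → F) c := h1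
        rw [Matrix.one_apply, ← Pi.single_apply, h2]
      · rw [(hh.1 i hi).2, mul_zero, mul_zero]
    · rw [hh.2 t, mul_zero, mul_zero]
  rw [key, Matrix.one_mulVec]

theorem isW_act (σ : ↥(GM k F a b))
    (hσ : ∀ i : Fin k, i.val + 1 < k →
      matM σ *ᵥ (eM i : MI k → F) = eM i ∧ matM σ *ᵥ (fM i : MI k → F) = fM i)
    (w : MI k → F) (hw : IsW w) : IsW (matM σ *ᵥ w) := by
  intro i hi
  constructor
  · have h1 : (matM σ *ᵥ w) (Sum.inl (Sum.inl i)) =
        BM k a b (matM σ *ᵥ (fM i : MI k → F)) (matM σ *ᵥ w) := by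
      rw [(hσ i hi).2]
      exact (Cfsg.Agent.Lib.Helper14.minus_polar_inr k F a b i _).symm
    rw [h1, BM_act]
    exact (Cfsg.Agent.Lib.Helper14.minus_polar_inr k F a b i w).trans (hw i hi).1
  · have h1 : (matM σ *ᵥ w) (Sum.inl (Sum.inr i)) =
        BM k a b (matM σ *ᵥ (eM i : MI k → F)) (matM σ *ᵥ w) := by
      rw [(hσ i hi).1]
      exact (Cfsg.Agent.Lib.Helper14.minus_polar_inl k F a b i _).symm
    rw [h1, BM_act]
    exact (Cfsg.Agent.Lib.Helper14.minus_polar_inl k F a b i w).trans (hw i hi).2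

end

/-- **[COMMM]** -/
theorem pkgCommM : PkgCommM.{u} := by
  intro F _ k a b σ g hσ hg
  apply extM_act
  intro x
  obtain ⟨h, w, rfl, hh, hw⟩ := exists_decomp x
  rw [mulM_act, mulM_act, Matrix.mulVec_add, Matrix.mulVec_add, Matrix.mulVec_add,
    Matrix.mulVec_add]
  rw [fix_H σ hσ h hh, Lm_fix_W g hg w hw, Lm_fix_W g hg _ (isW_act σ hσ w hw),
    fix_H σ hσ _ (isH_Lm g hg h hh)]

end Cfsg.Agent.Lib.Helper76.OMG
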