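import Mathlib
import Cfsg.Agent.Lib.Helper94.OMG.Defs
import Cfsg.Agent.Lib.Helper14.Forms

/-!
# Project OMG (S2415), package [MIXGLUE]

`pkgMixM_of (hA : PkgMixA) (hW : PkgMixW) : PkgMixM`: conjugate the element `x` of [MIXA] by the
Witt isometry `h` of [MIXW] (for `C = fixSp x`).
-/

set_option autoImplicit false
open scoped Matrix MatrixGroups

namespace Cfsg.Agent.Lib.Helper76.OMG

open Cfsg.Agent.Lib.Helper31.Siegel Cfsg.Agent.Lib.Helper32.OPG Cfsg.Agent.Lib.Helper64.OParM
open Cfsg.Agent.Lib.Helper23.OHyp Cfsg.Agent.Lib.Helper94.OMG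

universe u

section

variable {k : ℕ} {F : Type u} [Field F] {a b : F}

theorem mem_fixSp_iff (x : Matrix (MI k) (MI k) F) (v : MI k → F) :
    v ∈ fixSp x ↔ x *ᵥ v = v := by
  unfold fixSp
  rw [LinearMap.mem_ker, LinearMap.sub_apply, Matrix.toLin'_apply, sub_eq_zero]
  rfl

/-- the submodule of the vectors in `⟨e_l, f_l⟩ ⊕ (anisotropic plane)`. -/
def Wsub (k : ℕ) (F : Type u) [Field F] : Submodule F (MI k → F) where
  carrier := {w | IsW w}
  add_mem' := by
    intro x y hx hy i hi
    simp [(hx i hi).1, (hx i hi).2, (hy i hi).1, (hy i hi).2]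
  zero_mem' := by
    intro i hi
    simp
  smul_mem' := by
    intro c x hx i hi
    simp [(hx i hi).1, (hx i hi).2]

theorem finrank_Wsub_le (hk : 1 ≤ k) : Module.finrank F (Wsub k F) ≤ 4 := by
  let l : Fin k := ⟨k - 1, by omega⟩
  let c : Fin 4 → MI k := ![Sum.inl (Sum.inl l), Sum.inl (Sum.inr l), Sum.inr 0, Sum.inr 1]
  let φ : (Wsub k F) →ₗ[F] (Fin 4 → F) := (LinearMap.funLeft F F c).comp (Wsub k F).subtype
  have hinj : Function.Injective φ := by
    rw [← LinearMap.ker_eq_bot, LinearMap.ker_eq_bot']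
    intro w hw
    apply Subtype.ext
    funext d
    have hw' : ∀ t : Fin 4, (w : MI k → F) (c t) = 0 := fun t => congrFun hw t
    rcases d with (i | i) | t
    · by_cases hi : i.val + 1 < k
      · exact (w.2 i hi).1
      · have hil : i = l := by
          apply Fin.ext
          have := i.2
          show i.val = k - 1
          omega
        rw [hil]
        exact hw' 0
    · by_cases hi : i.val + 1 < k
      · exact (w.2 i hi).2
      · have hil : i = l := by
          apply Fin.ext
          have := i.2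
          show i.val = k - 1
          omega
        rw [hil]
        exact hw' 1
    · fin_cases t
      · exact hw' 2
      · exact hw' 3
  have h1 := LinearMap.finrank_le_finrank_of_injective hinj
  simpa using h1

end

/-- **[MIXGLUE]** -/
theorem pkgMixM_of (hA : PkgMixA.{u}) (hW : PkgMixW.{u}) : PkgMixM.{u} := by
  intro F _ _ k a b hab hk
  obtain ⟨r, x, hr, hr2, hrq, hxr, hfin, hNd, hPlus, hPerp, hCompl, hOrb⟩ := hA F k a b hab hk
  obtain ⟨h, hh⟩ := hW F k a b hab hk (fixSp (matM x)) hNd hPlus hfin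
  have hpow : ∀ j : ℕ, (h⁻¹ * x * h) ^ j = h⁻¹ * x ^ j * h := by
    intro j
    have h1 := conj_pow (i := j) (a := h⁻¹) (b := x)
    rwa [inv_inv] at h1
  have hact : ∀ (y : ↥(GM k F a b)) (v : MI k → F),
      matM (h⁻¹ * y * h) *ᵥ v = matM h⁻¹ *ᵥ (matM y *ᵥ (matM h *ᵥ v)) := by
    intro y v
    rw [mulM_act, mulM_act]
  have hfix : ∀ v : MI k → F, v ∈ fixSp (matM x) → matM x *ᵥ v = v :=
    fun v hv => (mem_fixSp_iff _ v).mp hv
  -- `movSp x = h (W)`
  have hM4 : Module.finrank F (movSp (matM x)) = 4 := by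
    have h1 := Submodule.finrank_add_eq_of_isCompl hCompl
    rw [hfin] at h1
    have h2 : Module.finrank F (MI k → F) = 2 * k + 2 := by
      rw [Module.finrank_fintype_fun_eq_card]
      simp [Fintype.card_sum]
      ring
    omega
  have hMle : movSp (matM x) ≤ (Wsub k F).map (Matrix.toLin' (matM h)) := by
    intro m hm
    refine ⟨matM h⁻¹ *ᵥ m, ?_, ?_⟩
    · intro i hi
      constructor
      · have h1 : (matM h⁻¹ *ᵥ m) (Sum.inl (Sum.inl i)) =
            BM k a b (matM h *ᵥ (fM i : MI k → F)) (matM h *ᵥ (matM h⁻¹ *ᵥ m)) := by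
          rw [BM_act]
          exact (Cfsg.Agent.Lib.Helper14.minus_polar_inr k F a b i _).symm
        rw [h1, actM_inv]
        exact hPerp _ (hh i hi).2 _ hm
      · have h1 : (matM h⁻¹ *ᵥ m) (Sum.inl (Sum.inr i)) =
            BM k a b (matM h *ᵥ (eM i : MI k → F)) (matM h *ᵥ (matM h⁻¹ *ᵥ m)) := by
          rw [BM_act]
          exact (Cfsg.Agent.Lib.Helper14.minus_polar_inl k F a b i _).symm
        rw [h1, actM_inv]
        exact hPerp _ (hh i hi).1 _ hm
    · rw [Matrix.toLin'_apply, actM_inv]
  have hEq : movSp (matM x) = (Wsub k F).map (Matrix.toLin' (matM h)) := by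
    apply Submodule.eq_of_le_of_finrank_le hMle
    calc Module.finrank F ((Wsub k F).map (Matrix.toLin' (matM h)))
        ≤ Module.finrank F (Wsub k F) := Submodule.finrank_map_le _ _
      _ ≤ 4 := finrank_Wsub_le (by omega)
      _ = _ := hM4.symm
  have hWM : ∀ w : MI k → F, IsW w → matM h *ᵥ w ∈ movSp (matM x) := by
    intro w hw
    rw [hEq]
    exact ⟨w, hw, Matrix.toLin'_apply _ _⟩
  refine ⟨r, h⁻¹ * x * h, hr, hr2, hrq, ?_, ?_, ?_⟩
  · rw [hpow, hxr, mul_one, inv_mul_cancel]
  · intro i hi
    constructor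
    · rw [hact, hfix _ (hh i hi).1, invM_act]
    · rw [hact, hfix _ (hh i hi).2, invM_act]
  · intro l hl w hw
    have key : ∀ v : MI k → F, IsW v → v ≠ 0 →
        w ∈ Submodule.span F (Set.range fun j : ℕ => matM ((h⁻¹ * x * h) ^ j) *ᵥ v) := by
      intro v hv hv0
      have hv0' : matM h *ᵥ v ≠ 0 := by
        intro h0
        apply hv0
        have h1 := invM_act h v
        rw [h0, Matrix.mulVec_zero] at h1
        exact h1.symm
      have h1 := hOrb (matM h *ᵥ v) (hWM v hv) hv0' (matM h *ᵥ w) (hWM w hw)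
      have h2 := Submodule.apply_mem_span_image_of_mem_span (Matrix.toLin' (matM h⁻¹)) h1
      rw [Matrix.toLin'_apply, invM_act, ← Set.range_comp] at h2
      have h3 : (fun j : ℕ => matM ((h⁻¹ * x * h) ^ j) *ᵥ v) =
          (⇑(Matrix.toLin' (matM h⁻¹)) ∘ fun j : ℕ => matM (x ^ j) *ᵥ (matM h *ᵥ v)) := by
        funext j
        rw [hpow, hact]
        simp only [Function.comp_apply, Matrix.toLin'_apply]
      rw [h3]
      exact h2
    constructor
    · apply key (eM l)
      · intro i hi
        have hne : i ≠ l := by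
          intro h
          rw [h] at hi
          omega
        constructor
        · simp [hne]
        · simp
      · intro h0
        have h1 := congrFun h0 (Sum.inl (Sum.inl l))
        simp at h1
    · apply key (fM l)
      · intro i hi
        have hne : i ≠ l := by
          intro h
          rw [h] at hi
          omega
        constructor
        · simp
        · simp [hne]
      · intro h0
        have h1 := congrFun h0 (Sum.inl (Sum.inr l))
        simp at h1

end Cfsg.Agent.Lib.Helper76.OMG
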